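import Mathlib
import Cfsg.Agent.H100.NormRank
import Cfsg.Agent.H326.ModelsB
import Cfsg.Agent.H326.CHZ
import Cfsg.Prelude.Def_Sz
import Cfsg.Prelude.Def_Spor_Mathieu

/-!
# Normal elementary abelian subgroups of order 8 (for S3102)

Conversion of `NE8` (helper326) to `Lower _ 3` (helper100): `A₈`, ..., `A₁₁`, `PSL₃(4)`, `Sz(8)`, `M₁₂`, `M₂₂`, `M₂₃`.
-/

set_option autoImplicit false

namespace Cfsg.Agent.H978.LowEight

open Cfsg.Agent.H100.NormRank Cfsg.Agent.H326.NormEight Cfsg.Agent.H326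

theorem lower_of_ne8 {T : Type*} [Group T] (h : NE8 T) : Lower T 3 := by
  obtain ⟨V, h1, h2, h3⟩ := h
  refine ⟨V, h1, ?_, h3⟩
  have h4 := isMulCommutative_of_sq h2
  rw [elemAb_iff]
  exact ⟨fun a ha b hb => congrArg Subtype.val (h4.is_comm.comm (⟨a, ha⟩ : V) ⟨b, hb⟩), h2⟩

theorem lower_alt {n : ℕ} (h8 : 8 ≤ n) (h11 : n ≤ 11) (S : Sylow 2 (alternatingGroup (Fin n))) :
    Lower ↥(S : Subgroup (alternatingGroup (Fin n))) 3 := lower_of_ne8 (Models.alt n h8 h11 S)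

theorem lower_L34 {F : Type} [Field F] [Fintype F] (hF : Fintype.card F = 4)
    (S : Sylow 2 (Matrix.ProjectiveSpecialLinearGroup (Fin 3) F)) :
    Lower ↥(S : Subgroup (Matrix.ProjectiveSpecialLinearGroup (Fin 3) F)) 3 :=
  lower_of_ne8 (ModelsB.psl34 hF (MulEquiv.refl _) S)

theorem lower_Sz8 {F : Type} [Field F] [Fintype F] (hF : Fintype.card F = 8) (S : Sylow 2 ↥(Cfsg.Lie.Sz F 4)) :
    Lower ↥(S : Subgroup ↥(Cfsg.Lie.Sz F 4)) 3 := by
  have hF' : Fintype.card F = 2 ^ (2 * 1 + 1) := by rw [hF]; norm_num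
  have h1 := Cfsg.Agent.TypeUSz.Inv.shape_sz (m := 1) le_rfl hF' S
  exact lower_of_ne8 ⟨Subgroup.center S, inferInstance, fun x hx => h1.sq x hx,
    le_of_le_of_eq (by norm_num : 8 ≤ 2 ^ (2 * 1 + 1)) h1.card_center.symm⟩

theorem lower_M12 {X : Type*} [Group X] [Finite X] (h : Cfsg.Spor.IsoM12 X) (S : Sylow 2 X) :
    Lower ↥(S : Subgroup X) 3 := lower_of_ne8 (Models.m12 h S)

theorem lower_M22 {X : Type*} [Group X] [Finite X] (h : Cfsg.Spor.IsoM22 X) (S : Sylow 2 X) :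
    Lower ↥(S : Subgroup X) 3 := lower_of_ne8 (ModelsB.m22 h S)

theorem lower_M23 {X : Type*} [Group X] [Finite X] (h : Cfsg.Spor.IsoM23 X) (S : Sylow 2 X) :
    Lower ↥(S : Subgroup X) 3 := lower_of_ne8 (ModelsB.m23 h S)

theorem lower_PSL43 {G : Type*} [Group G] [Finite G] {F : Type*} [Field F] [Fintype F] (hF : Fintype.card F = 3)
    (e : G ≃* Matrix.ProjectiveSpecialLinearGroup (Fin 4) F) (S : Sylow 2 G) : Lower ↥(S : Subgroup G) 3 :=
  lower_of_ne8 (Models.psl43 hF e S)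

theorem lower_PSp43 {G : Type*} [Group G] [Finite G] {F : Type*} [Field F] [Fintype F] (hF : Fintype.card F = 3)
    (e : G ≃* Cfsg.PSp 2 F) (S : Sylow 2 G) : Lower ↥(S : Subgroup G) 3 :=
  lower_of_ne8 (Models.psp43 hF e S)

theorem lower_PSU43 {G : Type*} [Group G] [Finite G] {F : Type*} [Field F] [Fintype F] (hF : Fintype.card F = 9)
    (e : G ≃* Cfsg.PSU 4 F 3) (S : Sylow 2 G) : Lower ↥(S : Subgroup G) 3 :=
  lower_of_ne8 (ModelsB.psu43 hF e S)

theorem lower_G23' {G : Type*} [Group G] [Finite G] {F : Type*} [Field F] [Fintype F] (hF : Fintype.card F = 3)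
    (e : G ≃* ↥(Cfsg.Lie.chevG2.group F)) (S : Sylow 2 G) : Lower ↥(S : Subgroup G) 3 :=
  lower_of_ne8 (Models.g23 hF e S)

end Cfsg.Agent.H978.LowEight
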